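import Mathlib
import Cfsg.Agent.H32.NY.PermP
import Cfsg.Agent.H32.NY.PermQ

/-!
# S4979, layer (I): a good prime is impossible in the alternating case (helper322, from helper239's `perm_false`)
-/

set_option autoImplicit false
set_option linter.unusedSectionVars false

open Cfsg

namespace Cfsg.Agent.H32.NY.A322

open Cfsg.Agent.H322.NX Cfsg.Agent.H32.NX9 Cfsg.Agent.H32.NY.A32

open Cfsg.Agent.H32.NX9 Cfsg.Agent.H32.NY.A32 Cfsg.Agent.H37.NX Cfsg.Agent.H32.NY.A37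

universe u v

variable {p q r a : ℕ} {H V : Type u} {B : Type v} [Group H] [Finite H] [AddCommGroup V] [Finite V]
  [DistribMulAction H V] [Finite B] [MulAction H B] {W : B → AddSubgroup V} {K N Q P : Subgroup H}
  {φ : N →* ℂˣ} {t : B → H}

/-- **a good prime is impossible in the alternating case** -/
theorem rdata_false_alt (I : ImpW (V := V) p q W K N Q φ) (R : RData r a W N Q P t) (hA : IsAlt H B)
    (hn : (p = 3 ∧ Nat.card B = 5) ∨ 8 ≤ Nat.card B)
    (trQ : ∀ i, ∀ u ∈ W i, ∀ w ∈ W i, u ≠ 0 → w ≠ 0 → ∃ g ∈ Q, g • u = w) : False := by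
  obtain ⟨x, h1, h2, h3, h4, h5, h6, h7, h8, h9, h10⟩ := perm_data I R hA hn
  refine Cfsg.Agent.H32.NY.A239.perm_false I hA hn R.prime R.odd (r_ne_p R I) trQ
    (R := P ⊔ N) (x := x) ⟨h5, h6, h1, h2, h3, h4⟩ h7 h8 ?_ h9
  have h0 : 0 < Nat.card B := lt_of_lt_of_le (by omega) I.card
  obtain ⟨⟨i⟩, -⟩ := Nat.card_pos_iff.1 h0
  refine ⟨t i, (le_sup_left : P ≤ P ⊔ N) (R.tP i), i, fun h => ?_⟩
  have h11 := h10 i
  rw [h, isUnit_zero_iff] at h11
  -- `0 = 1` in `ZMod (r ^ a)`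
  have h12 : ((1 : ℕ) : ZMod (r ^ a)) = 0 := by rw [Nat.cast_one]; exact h11.symm
  rw [ZMod.natCast_eq_zero_iff, Nat.dvd_one, Nat.pow_eq_one] at h12
  have := R.ha
  have := R.prime.one_lt
  omega

end Cfsg.Agent.H32.NY.A322
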